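import Cfsg.Agent.Lib.Helper21.OAsch.Defs2
import Cfsg.Agent.S0756

set_option autoImplicit false

namespace Cfsg.Agent.Lib.Helper8.OAsch

open Cfsg Cfsg.Geo Matrix Cfsg.Agent.Lib.Helper13.Asch Cfsg.Agent.Lib.Helper21.Asch
  Cfsg.Agent.Lib.Helper21.OAsch
open scoped Kronecker MatrixGroups

variable {F : Type*} [Field F]

/-- normal form of a symmetric invertible matrix over a finite field of odd order -/
theorem symm_nf [Fintype F] (h2 : (2 : F) ≠ 0) (α : F) (hα : ¬ IsSquare α) (n : ℕ)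
    (M : Matrix (Fin (n + 1)) (Fin (n + 1)) F) (hM : Mᵀ = M) (hu : IsUnit M.det) :
    ∃ (g : GL (Fin (n + 1)) F) (d : F), (d = 1 ∨ d = α) ∧
      (g : Matrix (Fin (n + 1)) (Fin (n + 1)) F)ᵀ * M * (g : Matrix (Fin (n + 1)) (Fin (n + 1)) F)
        = diagonal (fun i => if i = Fin.last n then d else 1) := by
  have hα0 : α ≠ 0 := by
    rintro rfl
    exact hα ⟨0, by simp⟩
  have hS : (Matrix.toBilin' M).IsSymm := by
    refine ⟨fun x y => ?_⟩
    rw [Matrix.toBilin'_apply', Matrix.toBilin'_apply', Matrix.dotProduct_mulVec,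
      ← Matrix.mulVec_transpose, hM, dotProduct_comm]
  have hB : (Matrix.toBilin' M).Nondegenerate :=
    LinearMap.BilinForm.nondegenerate_toBilin'_of_det_ne_zero' M hu.ne_zero
  obtain ⟨b, hb0, hb1, hbl⟩ := Cfsg.Agent.S0756.result h2 (Matrix.toBilin' M) hS hB (n := n)
    (by simp) α hα
  set g : Matrix (Fin (n + 1)) (Fin (n + 1)) F := Matrix.of fun i j => b j i with hg
  set d : F := Matrix.toBilin' M (b (Fin.last n)) (b (Fin.last n)) with hd
  have hcol : ∀ j, g *ᵥ Pi.single j 1 = b j := by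
    intro j
    ext i
    simp [hg]
  have hent : gᵀ * M * g = diagonal (fun i => if i = Fin.last n then d else 1) := by
    ext i j
    have h1 : (gᵀ * M * g) i j = Matrix.toBilin' M (b i) (b j) := by
      have h0 : (gᵀ * M * g) i j = Pi.single i 1 ⬝ᵥ ((gᵀ * M * g) *ᵥ Pi.single j 1) := by simp
      rw [h0, Matrix.toBilin'_apply', ← Matrix.mulVec_mulVec, ← Matrix.mulVec_mulVec,
        Matrix.dotProduct_mulVec (Pi.single i 1), Matrix.vecMul_transpose, hcol, hcol]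
    rw [h1, Matrix.diagonal_apply]
    by_cases hij : i = j
    · subst hij
      rw [if_pos rfl]
      by_cases hi : i = Fin.last n
      · rw [if_pos hi, hi]
      · rw [if_neg hi, hb1 i hi]
    · rw [if_neg hij, hb0 i j hij]
  have hd0 : d ≠ 0 := by
    rcases hbl with h | h
    · rw [h]; exact one_ne_zero
    · rw [h]; exact hα0
  have hdet : g.det ≠ 0 := by
    intro h0
    have := congrArg Matrix.det hent
    rw [Matrix.det_mul, Matrix.det_mul, h0, mul_zero, Matrix.det_diagonal,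
      Finset.prod_ite_eq' Finset.univ (Fin.last n) (fun _ => d), if_pos (Finset.mem_univ _)] at this
    exact hd0 this.symm
  exact ⟨Matrix.GeneralLinearGroup.mkOfDetNeZero g hdet, d, hbl, hent⟩

/-- the last entry of the normal form is determined by the discriminant -/
theorem symm_nf_d {α : F} (hα : ¬ IsSquare α) {n : ℕ}
    {M : Matrix (Fin (n + 1)) (Fin (n + 1)) F} {g : GL (Fin (n + 1)) F} {d : F}
    (hd : d = 1 ∨ d = α)
    (h : (g : Matrix (Fin (n + 1)) (Fin (n + 1)) F)ᵀ * M * (g : Matrix (Fin (n + 1)) (Fin (n + 1)) F)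
        = diagonal (fun i => if i = Fin.last n then d else 1)) :
    d = 1 ↔ IsSquare M.det := by
  have hg0 : (g : Matrix (Fin (n + 1)) (Fin (n + 1)) F).det ≠ 0 :=
    ((Matrix.isUnit_iff_isUnit_det _).1 g.isUnit).ne_zero
  have hdet : (g : Matrix (Fin (n + 1)) (Fin (n + 1)) F).det ^ 2 * M.det = d := by
    have := congrArg Matrix.det h
    rw [Matrix.det_mul, Matrix.det_mul, Matrix.det_transpose, Matrix.det_diagonal,
      Finset.prod_ite_eq' Finset.univ (Fin.last n) (fun _ => d), if_pos (Finset.mem_univ _)] at this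
    rw [← this]; ring
  constructor
  · intro h1
    refine ⟨((g : Matrix (Fin (n + 1)) (Fin (n + 1)) F).det)⁻¹, ?_⟩
    rw [h1] at hdet
    field_simp
    linear_combination hdet
  · rintro ⟨r, hr⟩
    rcases hd with h1 | h1
    · exact h1
    · exfalso
      apply hα
      refine ⟨(g : Matrix (Fin (n + 1)) (Fin (n + 1)) F).det * r, ?_⟩
      rw [← h1, ← hdet, hr]; ring

/-- symmetric invertible matrices with the same discriminant class are congruent -/
theorem symm_cong [Fintype F] (h2 : (2 : F) ≠ 0) (α : F) (hα : ¬ IsSquare α) (n : ℕ)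
    (M₁ M₂ : Matrix (Fin (n + 1)) (Fin (n + 1)) F) (h₁ : M₁ᵀ = M₁) (h₂ : M₂ᵀ = M₂)
    (hu₁ : IsUnit M₁.det) (hu₂ : IsUnit M₂.det) (hsq : IsSquare M₁.det ↔ IsSquare M₂.det) :
    ∃ g : GL (Fin (n + 1)) F,
      (g : Matrix (Fin (n + 1)) (Fin (n + 1)) F)ᵀ * M₂ * (g : Matrix (Fin (n + 1)) (Fin (n + 1)) F)
        = M₁ := by
  obtain ⟨g₁, d₁, hd₁, e₁⟩ := symm_nf h2 α hα n M₁ h₁ hu₁
  obtain ⟨g₂, d₂, hd₂, e₂⟩ := symm_nf h2 α hα n M₂ h₂ hu₂
  have i₁ := symm_nf_d hα hd₁ e₁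
  have i₂ := symm_nf_d hα hd₂ e₂
  have hdd : d₁ = d₂ := by
    have hiff : d₁ = 1 ↔ d₂ = 1 := i₁.trans (hsq.trans i₂.symm)
    rcases hd₁ with a | a
    · rw [a, hiff.1 a]
    · rcases hd₂ with b | b
      · rw [hiff.2 b, b]
      · rw [a, b]
  subst hdd
  refine ⟨g₂ * g₁⁻¹, ?_⟩
  have hinv : (g₁ : Matrix (Fin (n + 1)) (Fin (n + 1)) F) * ((g₁⁻¹ : GL (Fin (n + 1)) F) :
      Matrix (Fin (n + 1)) (Fin (n + 1)) F) = 1 := by
    rw [← Units.val_mul, mul_inv_cancel, Units.val_one]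
  have hinvT : ((g₁⁻¹ : GL (Fin (n + 1)) F) : Matrix (Fin (n + 1)) (Fin (n + 1)) F)ᵀ *
      (g₁ : Matrix (Fin (n + 1)) (Fin (n + 1)) F)ᵀ = 1 := by
    rw [← Matrix.transpose_mul, hinv, Matrix.transpose_one]
  rw [Units.val_mul, Matrix.transpose_mul]
  calc ((g₁⁻¹ : GL (Fin (n + 1)) F) : Matrix (Fin (n + 1)) (Fin (n + 1)) F)ᵀ *
        (g₂ : Matrix (Fin (n + 1)) (Fin (n + 1)) F)ᵀ * M₂ *
        ((g₂ : Matrix (Fin (n + 1)) (Fin (n + 1)) F) * ((g₁⁻¹ : GL (Fin (n + 1)) F) :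
          Matrix (Fin (n + 1)) (Fin (n + 1)) F))
      = ((g₁⁻¹ : GL (Fin (n + 1)) F) : Matrix (Fin (n + 1)) (Fin (n + 1)) F)ᵀ *
        ((g₂ : Matrix (Fin (n + 1)) (Fin (n + 1)) F)ᵀ * M₂ *
        (g₂ : Matrix (Fin (n + 1)) (Fin (n + 1)) F)) * ((g₁⁻¹ : GL (Fin (n + 1)) F) :
          Matrix (Fin (n + 1)) (Fin (n + 1)) F) := by simp only [Matrix.mul_assoc]
    _ = (((g₁⁻¹ : GL (Fin (n + 1)) F) : Matrix (Fin (n + 1)) (Fin (n + 1)) F)ᵀ *
        (g₁ : Matrix (Fin (n + 1)) (Fin (n + 1)) F)ᵀ) * M₁ *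
        ((g₁ : Matrix (Fin (n + 1)) (Fin (n + 1)) F) * ((g₁⁻¹ : GL (Fin (n + 1)) F) :
          Matrix (Fin (n + 1)) (Fin (n + 1)) F)) := by
        rw [e₂, ← e₁]; simp only [Matrix.mul_assoc]
    _ = M₁ := by rw [hinv, hinvT, Matrix.one_mul, Matrix.mul_one]

/-- TW4 -/
theorem sim_odd [Fintype F] (h2 : (2 : F) ≠ 0) {k : ℕ} (hk : Odd k) (A B : Matrix (Fin k) (Fin k) F)
    (hA : Aᵀ = A) (hB : Bᵀ = B) (hAu : IsUnit A.det) (hBu : IsUnit B.det) :
    ∃ (g : GL (Fin k) F) (c : F), c ≠ 0 ∧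
      (g : Matrix (Fin k) (Fin k) F)ᵀ * B * (g : Matrix (Fin k) (Fin k) F) = c • A := by
  obtain ⟨j, rfl⟩ := hk
  have hchar : ringChar F ≠ 2 := by
    intro h
    apply h2
    have := ringChar.Nat.cast_ringChar (R := F)
    rw [h] at this
    exact_mod_cast this
  obtain ⟨α, hα⟩ := FiniteField.exists_nonsquare hchar
  have hα0 : α ≠ 0 := by
    rintro rfl
    exact hα ⟨0, by simp⟩
  by_cases hsq : IsSquare A.det ↔ IsSquare B.det
  · obtain ⟨g, hg⟩ := symm_cong h2 α hα (2 * j) A B hA hB hAu hBu hsq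
    exact ⟨g, 1, one_ne_zero, by rw [hg, one_smul]⟩
  · have hdet : (α • A).det = (α ^ j) ^ 2 * (α * A.det) := by
      rw [Matrix.det_smul, Fintype.card_fin]; ring
    have hiff : IsSquare (α • A).det ↔ ¬ IsSquare A.det := by
      rw [hdet]
      constructor
      · rintro ⟨r, hr⟩ ⟨s, hs⟩
        have hs0 : s ≠ 0 := by
          rintro rfl
          rw [mul_zero] at hs
          exact hAu.ne_zero hs
        apply hα
        refine ⟨r / (α ^ j * s), ?_⟩
        have hj : α ^ j ≠ 0 := pow_ne_zero _ hα0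
        rw [hs] at hr
        field_simp
        linear_combination hr
      · intro h
        obtain ⟨r, hr⟩ := Cfsg.Agent.Lib.Helper13.isSquare_mul_of_not_isSquare h2 hα h
        exact ⟨α ^ j * r, by rw [hr]; ring⟩
    obtain ⟨g, hg⟩ := symm_cong h2 α hα (2 * j) (α • A) B (by rw [Matrix.transpose_smul, hA]) hB
      (by
        rw [hdet]
        exact isUnit_iff_ne_zero.2 (mul_ne_zero (pow_ne_zero _ (pow_ne_zero _ hα0))
          (mul_ne_zero hα0 hAu.ne_zero)))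
      hBu (by rw [hiff]; tauto)
    exact ⟨g, α, hα0, hg⟩

end Cfsg.Agent.Lib.Helper8.OAsch
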