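import Cfsg.Agent.Lib.Helper21.OAsch.Defs2

set_option autoImplicit false

namespace Cfsg.Agent.Lib.Helper8.OAsch

open Cfsg Cfsg.Geo Matrix Cfsg.Agent.Lib.Helper13.Asch Cfsg.Agent.Lib.Helper21.Asch
  Cfsg.Agent.Lib.Helper21.OAsch
open scoped Kronecker MatrixGroups

variable {F : Type*} [Field F]

/-- an invertible matrix of odd size proportional to its transpose is symmetric -/
theorem symm_of_transpose_prop {k : ℕ} (hk : Odd k) (M : Matrix (Fin k) (Fin k) F)
    (hu : IsUnit M.det) (w w' : F) (hw : w ≠ 0) (h : ∀ p q, M q p * w' = M p q * w) :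
    Mᵀ = M := by
  obtain ⟨j, hj⟩ := hk
  have hne : Nonempty (Fin k) := ⟨⟨0, by omega⟩⟩
  obtain ⟨p0, q0, h0⟩ : ∃ p q, M p q ≠ 0 := by
    by_contra hcon
    push Not at hcon
    have : M = 0 := by
      ext p q
      exact hcon p q
    rw [this, Matrix.det_zero] at hu
    exact not_isUnit_zero hu
  have hw' : w' ≠ 0 := by
    rintro rfl
    have := h p0 q0
    rw [mul_zero] at this
    exact (mul_ne_zero h0 hw) this.symm
  have hT : Mᵀ = (w / w') • M := by
    ext p q
    rw [Matrix.transpose_apply, Matrix.smul_apply, smul_eq_mul]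
    field_simp
    linear_combination h p q
  have he2 : (w / w') ^ 2 = 1 := by
    have h1 : M p0 q0 = (w / w') * ((w / w') * M p0 q0) := by
      have a1 := congrFun (congrFun hT q0) p0
      have a2 := congrFun (congrFun hT p0) q0
      rw [Matrix.transpose_apply, Matrix.smul_apply, smul_eq_mul] at a1 a2
      rw [← a2, ← a1]
    have h2 : ((w / w') ^ 2 - 1) * M p0 q0 = 0 := by linear_combination -h1
    rcases mul_eq_zero.1 h2 with h3 | h3
    · exact sub_eq_zero.1 h3
    · exact absurd h3 h0
  have hek : (w / w') ^ k = 1 := by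
    have h1 := congrArg Matrix.det hT
    rw [Matrix.det_transpose, Matrix.det_smul, Fintype.card_fin] at h1
    have h2 : ((w / w') ^ k - 1) * M.det = 0 := by linear_combination -h1
    rcases mul_eq_zero.1 h2 with h3 | h3
    · exact sub_eq_zero.1 h3
    · exact absurd h3 hu.ne_zero
  have he : w / w' = 1 := by
    rw [hj, pow_succ, pow_mul, he2, one_pow, one_mul] at hek
    exact hek
  rw [hT, he, one_smul]

theorem prod_update_update {k t : ℕ} (f : Fin t → Fin k → Fin k → F) (a b : Fin t → Fin k)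
    (i : Fin t) (p q : Fin k) :
    ∏ j, f j (Function.update a i p j) (Function.update b i q j)
      = f i p q * ∏ j ∈ Finset.univ.erase i, f j (a j) (b j) := by
  rw [← Finset.mul_prod_erase Finset.univ _ (Finset.mem_univ i)]
  simp only [Function.update_self]
  congr 1
  apply Finset.prod_congr rfl
  intro j hj
  rw [Function.update_of_ne (Finset.ne_of_mem_erase hj),
    Function.update_of_ne (Finset.ne_of_mem_erase hj)]

/-- TW3 -/
theorem pure_symm {k t : ℕ} (hk : Odd k) (Γ : Fin t → GL (Fin k) F)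
    (hs : (pureT (fun i => (Γ i : Matrix (Fin k) (Fin k) F)))ᵀ =
      pureT (fun i => (Γ i : Matrix (Fin k) (Fin k) F))) :
    ∀ i, (Γ i : Matrix (Fin k) (Fin k) F)ᵀ = Γ i := by
  intro i
  have hu : ∀ j, IsUnit (Γ j : Matrix (Fin k) (Fin k) F).det := fun j =>
    (Matrix.isUnit_iff_isUnit_det _).1 (Γ j).isUnit
  have hne : Nonempty (Fin k) := by
    obtain ⟨j, hj⟩ := hk
    exact ⟨⟨0, by omega⟩⟩
  have hex : ∀ j, ∃ pq : Fin k × Fin k, (Γ j : Matrix (Fin k) (Fin k) F) pq.1 pq.2 ≠ 0 := by
    intro j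
    by_contra hcon
    push Not at hcon
    have : (Γ j : Matrix (Fin k) (Fin k) F) = 0 := by
      ext p q
      exact hcon (p, q)
    have h1 := hu j
    rw [this, Matrix.det_zero] at h1
    exact not_isUnit_zero h1
  choose ab hab using hex
  apply symm_of_transpose_prop hk _ (hu i)
    (∏ j ∈ Finset.univ.erase i, (Γ j : Matrix (Fin k) (Fin k) F) (ab j).1 (ab j).2)
    (∏ j ∈ Finset.univ.erase i, (Γ j : Matrix (Fin k) (Fin k) F) (ab j).2 (ab j).1)
    (Finset.prod_ne_zero_iff.2 fun j _ => hab j)
  intro p q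
  have h1 := congrFun (congrFun hs (Function.update (fun j => (ab j).1) i p))
    (Function.update (fun j => (ab j).2) i q)
  rw [Matrix.transpose_apply, pureT_apply, pureT_apply,
    prod_update_update (fun j => (Γ j : Matrix (Fin k) (Fin k) F)),
    prod_update_update (fun j => (Γ j : Matrix (Fin k) (Fin k) F))] at h1
  exact h1

end Cfsg.Agent.Lib.Helper8.OAsch
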