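import Cfsg.Agent.Lib.Helper21.OAsch.Defs2
import Cfsg.Agent.Lib.Helper8.OAsch.TW4
import Cfsg.Agent.Lib.Helper72.PermSolvable

set_option autoImplicit false

namespace Cfsg.Agent.Lib.Helper8.OAsch

open Cfsg Cfsg.Geo Matrix Cfsg.Agent.Lib.Helper13.Asch Cfsg.Agent.Lib.Helper21.Asch
  Cfsg.Agent.Lib.Helper21.OAsch
open scoped Kronecker MatrixGroups

variable {F : Type*} [Field F]

theorem three_eq_zero_of_card [Fintype F] (hq : Fintype.card F = 3) : (3 : F) = 0 := by
  have := Nat.cast_card_eq_zero F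
  rw [hq] at this
  exact_mod_cast this

theorem sq_eq_one_of_card_three [Fintype F] (hq : Fintype.card F = 3) (a : F) :
    a = 0 ∨ a ^ 2 = 1 := by
  by_cases ha : a = 0
  · exact Or.inl ha
  · right
    have := FiniteField.pow_card_sub_one_eq_one a ha
    rwa [hq] at this

/-- a vector of norm one over the field with three elements has exactly one non-zero entry -/
theorem col_unique [Fintype F] (hq : Fintype.card F = 3) (v : Fin 3 → F)
    (hv : v 0 ^ 2 + v 1 ^ 2 + v 2 ^ 2 = 1) : ∃ i, v i ≠ 0 ∧ ∀ i', v i' ≠ 0 → i' = i := by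
  have h3 := three_eq_zero_of_card hq
  have h10 : (1 : F) ≠ 0 := one_ne_zero
  have hne : ∀ a : F, a ^ 2 = 1 → a ≠ 0 := by
    rintro a ha rfl
    simp at ha
  rcases sq_eq_one_of_card_three hq (v 0) with a0 | a0 <;>
  rcases sq_eq_one_of_card_three hq (v 1) with a1 | a1 <;>
  rcases sq_eq_one_of_card_three hq (v 2) with a2 | a2
  · exact absurd (by linear_combination -hv + v 0 * a0 + v 1 * a1 + v 2 * a2) h10
  · refine ⟨2, hne _ a2, fun i' hi' => ?_⟩
    fin_cases i'
    · exact absurd a0 hi'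
    · exact absurd a1 hi'
    · rfl
  · refine ⟨1, hne _ a1, fun i' hi' => ?_⟩
    fin_cases i'
    · exact absurd a0 hi'
    · rfl
    · exact absurd a2 hi'
  · exact absurd (by linear_combination hv - v 0 * a0 - a1 - a2) h10
  · refine ⟨0, hne _ a0, fun i' hi' => ?_⟩
    fin_cases i'
    · rfl
    · exact absurd a1 hi'
    · exact absurd a2 hi'
  · exact absurd (by linear_combination hv - a0 - v 1 * a1 - a2) h10
  · exact absurd (by linear_combination hv - a0 - a1 - v 2 * a2) h10
  · exact absurd (by linear_combination h3 - (hv - a0 - a1 - a2)) h10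

/-- a group of orthogonal `3 × 3` matrices (for the standard form) over the field with three
elements is solvable -/
theorem solvable_of_orth [Fintype F] (hq : Fintype.card F = 3) {H : Type*} [Group H]
    (ρ : H →* GL (Fin 3) F) (hinj : Function.Injective ρ)
    (hρ : ∀ h, ((ρ h : GL (Fin 3) F) : Matrix (Fin 3) (Fin 3) F)ᵀ *
      ((ρ h : GL (Fin 3) F) : Matrix (Fin 3) (Fin 3) F) = 1) : Group.IsSolvable H := by
  classical
  have hcol : ∀ (h : H) (j : Fin 3), ∃ i, ((ρ h : GL (Fin 3) F) : Matrix (Fin 3) (Fin 3) F) i j ≠ 0 ∧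
      ∀ i', ((ρ h : GL (Fin 3) F) : Matrix (Fin 3) (Fin 3) F) i' j ≠ 0 → i' = i := by
    intro h j
    apply col_unique hq (fun i => ((ρ h : GL (Fin 3) F) : Matrix (Fin 3) (Fin 3) F) i j)
    have := congrFun (congrFun (hρ h) j) j
    rw [Matrix.mul_apply, Fin.sum_univ_three, Matrix.one_apply_eq] at this
    simp only [Matrix.transpose_apply] at this
    linear_combination this
  choose sg hsg1 hsg2 using hcol
  have hone : ∀ j, sg 1 j = j := by
    intro j
    refine (hsg2 1 j j ?_).symm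
    rw [map_one, Units.val_one, Matrix.one_apply_eq]
    exact one_ne_zero
  have hmul : ∀ a b j, sg (a * b) j = sg a (sg b j) := by
    intro a b j
    refine (hsg2 (a * b) j _ ?_).symm
    rw [map_mul, Units.val_mul, Matrix.mul_apply, Finset.sum_eq_single (sg b j)]
    · exact mul_ne_zero (hsg1 a _) (hsg1 b j)
    · intro k _ hk
      have : ((ρ b : GL (Fin 3) F) : Matrix (Fin 3) (Fin 3) F) k j = 0 := by
        by_contra h0
        exact hk (hsg2 b j k h0)
      rw [this, mul_zero]
    · intro h0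
      exact absurd (Finset.mem_univ _) h0
  letI act : MulAction H (Fin 3) :=
    { smul := sg
      one_smul := hone
      mul_smul := hmul }
  have hsm : ∀ (a : H) (j : Fin 3), a • j = sg a j := fun _ _ => rfl
  have hP : Group.IsSolvable (Equiv.Perm (Fin 3)) :=
    Cfsg.Agent.Lib.Helper72.isSolvable_perm_of_card_le_four _ (by simp)
  have hdiag : ∀ a ∈ (MulAction.toPermHom H (Fin 3)).ker, ∀ i j, i ≠ j →
      ((ρ a : GL (Fin 3) F) : Matrix (Fin 3) (Fin 3) F) i j = 0 := by
    intro a ha i j hij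
    by_contra h0
    have h1 := hsg2 a j i h0
    have h2 : sg a j = j := by
      have := congrArg (fun σ : Equiv.Perm (Fin 3) => σ j) (MonoidHom.mem_ker.1 ha)
      simpa [MulAction.toPermHom_apply, MulAction.toPerm_apply, hsm] using this
    exact hij (h1.trans h2)
  have hK : Group.IsSolvable (MulAction.toPermHom H (Fin 3)).ker := by
    apply Group.isSolvable_of_comm
    rintro ⟨a, ha⟩ ⟨b, hb⟩
    apply Subtype.ext
    apply hinj
    apply Units.ext
    show ((ρ (a * b) : GL (Fin 3) F) : Matrix (Fin 3) (Fin 3) F) = ((ρ (b * a) : GL (Fin 3) F) : Matrix (Fin 3) (Fin 3) F)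
    rw [map_mul, map_mul, Units.val_mul, Units.val_mul]
    have da : ((ρ a : GL (Fin 3) F) : Matrix (Fin 3) (Fin 3) F)
        = diagonal (fun i => ((ρ a : GL (Fin 3) F) : Matrix (Fin 3) (Fin 3) F) i i) := by
      ext i j
      by_cases hij : i = j
      · subst hij; simp
      · rw [Matrix.diagonal_apply_ne _ hij, hdiag a ha i j hij]
    have db : ((ρ b : GL (Fin 3) F) : Matrix (Fin 3) (Fin 3) F)
        = diagonal (fun i => ((ρ b : GL (Fin 3) F) : Matrix (Fin 3) (Fin 3) F) i i) := by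
      ext i j
      by_cases hij : i = j
      · subst hij; simp
      · rw [Matrix.diagonal_apply_ne _ hij, hdiag b hb i j hij]
    rw [da, db, Matrix.diagonal_mul_diagonal, Matrix.diagonal_mul_diagonal]
    congr 1
    funext i
    exact mul_comm _ _
  exact Group.isSolvable_of_ker_le_range (MulAction.toPermHom H (Fin 3)).ker.subtype
    (MulAction.toPermHom H (Fin 3)) (by rw [Subgroup.range_subtype])

/-- TW7 -/
theorem no_perfect_O33 [Fintype F] (hq : Fintype.card F = 3) (Γ : Matrix (Fin 3) (Fin 3) F)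
    (hs : Γᵀ = Γ) (hu : IsUnit Γ.det) (S : Subgroup (GL (Fin 3) F))
    (hS : ∀ x ∈ S, (x : Matrix (Fin 3) (Fin 3) F)ᵀ * Γ * (x : Matrix (Fin 3) (Fin 3) F) = Γ)
    (hperf : ⁅S, S⁆ = S) : S = ⊥ := by
  have h3 := three_eq_zero_of_card hq
  have h2 : (2 : F) ≠ 0 := by
    intro h
    exact one_ne_zero (α := F) (by linear_combination h3 - h)
  obtain ⟨g, c, hc, hg⟩ := sim_odd h2 (k := 3) (by decide) 1 Γ (by simp) hs (by simp) hu
  have hsolv : Group.IsSolvable S := by
    apply solvable_of_orth hq ((MulAut.conj g⁻¹).toMonoidHom.comp S.subtype)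
    · exact (MulAut.conj g⁻¹).injective.comp S.subtype_injective
    · rintro ⟨x, hx⟩
      have e : (((MulAut.conj g⁻¹).toMonoidHom.comp S.subtype) ⟨x, hx⟩ : GL (Fin 3) F)
          = g⁻¹ * x * g := by simp
      rw [e]
      have hgg : (g : Matrix (Fin 3) (Fin 3) F) * ((g⁻¹ : GL (Fin 3) F) : Matrix (Fin 3) (Fin 3) F)
          = 1 := by rw [← Units.val_mul, mul_inv_cancel, Units.val_one]
      have hgg' : ((g⁻¹ : GL (Fin 3) F) : Matrix (Fin 3) (Fin 3) F) * (g : Matrix (Fin 3) (Fin 3) F)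
          = 1 := by rw [← Units.val_mul, inv_mul_cancel, Units.val_one]
      -- Γ = c • (g⁻¹)ᵀ g⁻¹
      have hΓ : Γ = c • (((g⁻¹ : GL (Fin 3) F) : Matrix (Fin 3) (Fin 3) F)ᵀ *
          ((g⁻¹ : GL (Fin 3) F) : Matrix (Fin 3) (Fin 3) F)) := by
        have h1 : ((g⁻¹ : GL (Fin 3) F) : Matrix (Fin 3) (Fin 3) F)ᵀ *
            ((g : Matrix (Fin 3) (Fin 3) F)ᵀ * Γ * (g : Matrix (Fin 3) (Fin 3) F)) *
            ((g⁻¹ : GL (Fin 3) F) : Matrix (Fin 3) (Fin 3) F) = Γ := by
          have hT : ((g⁻¹ : GL (Fin 3) F) : Matrix (Fin 3) (Fin 3) F)ᵀ *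
              (g : Matrix (Fin 3) (Fin 3) F)ᵀ = 1 := by
            rw [← Matrix.transpose_mul, hgg, Matrix.transpose_one]
          calc _ = (((g⁻¹ : GL (Fin 3) F) : Matrix (Fin 3) (Fin 3) F)ᵀ *
              (g : Matrix (Fin 3) (Fin 3) F)ᵀ) * Γ * ((g : Matrix (Fin 3) (Fin 3) F) *
              ((g⁻¹ : GL (Fin 3) F) : Matrix (Fin 3) (Fin 3) F)) := by
                simp only [Matrix.mul_assoc]
            _ = Γ := by rw [hT, hgg, Matrix.one_mul, Matrix.mul_one]
        rw [← h1, hg]
        simp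
      have hx' := hS x hx
      -- conjugate
      have h4 : (g : Matrix (Fin 3) (Fin 3) F)ᵀ * ((x : Matrix (Fin 3) (Fin 3) F)ᵀ * Γ *
          (x : Matrix (Fin 3) (Fin 3) F)) * (g : Matrix (Fin 3) (Fin 3) F) = c • 1 := by
        rw [hx', hg]
      rw [hΓ] at h4
      have h5 : c • ((((g⁻¹ * x * g : GL (Fin 3) F)) : Matrix (Fin 3) (Fin 3) F)ᵀ *
          (((g⁻¹ * x * g : GL (Fin 3) F)) : Matrix (Fin 3) (Fin 3) F)) = c • 1 := by
        rw [← h4]
        simp only [Units.val_mul, Matrix.transpose_mul, Matrix.mul_assoc, Matrix.mul_smul,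
          Matrix.smul_mul]
      exact smul_right_injective _ hc h5
  by_contra hne
  have : Nontrivial S := (Subgroup.nontrivial_iff_ne_bot S).2 hne
  have hlt := Group.IsSolvable.commutator_lt_top_of_nontrivial S
  apply hlt.ne
  apply Subgroup.map_injective S.subtype_injective
  rw [Subgroup.map_subtype_commutator, hperf, ← MonoidHom.range_eq_map, Subgroup.range_subtype]

end Cfsg.Agent.Lib.Helper8.OAsch
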