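import Cfsg.Agent.Lib.Helper21.OAsch.Defs
import Cfsg.Agent.Lib.Helper44.StdForms

set_option autoImplicit false

namespace Cfsg.Agent.Lib.Helper8.OAsch

open Cfsg Cfsg.Geo Matrix Cfsg.Agent.Lib.Helper13.Asch Cfsg.Agent.Lib.Helper21.OAsch
open scoped Kronecker MatrixGroups

variable {ι : Type} [Fintype ι] [DecidableEq ι] {F : Type*} [Field F]
variable {Q : (ι → F) → F} {G : Matrix ι ι F}

open Cfsg.Agent.Lib.Helper44 in
/-- B0a -/
theorem odata_odd [Fintype F] (hodd : Odd (Fintype.card F)) (m : ℕ) :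
    OData (quadFormOdd m F) (gramMatrix (QuadraticMap.polar (quadFormOdd m F))) := by
  have h2 : (2 : F) ≠ 0 := by
    intro h
    have hch : ringChar F = 2 := CharP.ringChar_of_prime_eq_zero Nat.prime_two (by exact_mod_cast h)
    have := (FiniteField.even_card_iff_char_two).1 hch
    exact (Nat.not_even_iff_odd.2 hodd) (Nat.even_iff.2 this)
  have hQn : (QuadraticMap.polarBilin (oddQF m F)).Nondegenerate := oddQF_nondeg m F h2
  have hG : gramMatrix (QuadraticMap.polar (quadFormOdd m F))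
      = LinearMap.BilinForm.toMatrix' (QuadraticMap.polarBilin (oddQF m F)) := by
    ext a b
    rw [LinearMap.BilinForm.toMatrix'_apply, QuadraticMap.polarBilin_apply_apply, oddQF_coe]
    rfl
  have hpolar : ∀ u v, QuadraticMap.polar (quadFormOdd m F) u v
      = u ⬝ᵥ (gramMatrix (QuadraticMap.polar (quadFormOdd m F)) *ᵥ v) := by
    intro u v
    rw [hG, ← Matrix.toBilin'_apply', Matrix.toBilin'_toMatrix',
      QuadraticMap.polarBilin_apply_apply, oddQF_coe]
  refine ⟨h2, ?_, ?_, hpolar, ?_, ?_, ?_⟩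
  · ext a b
    exact QuadraticMap.polar_comm _ _ _
  · rw [isUnit_iff_ne_zero, ← Matrix.nondegenerate_iff_det_ne_zero, hG,
      LinearMap.BilinForm.nondegenerate_toMatrix'_iff]
    exact hQn
  · intro v
    rw [← hpolar, ← oddQF_coe, QuadraticMap.polar_self]
    simp
  · refine ⟨m, ?_⟩
    simp
    ring
  · intro F₀
    rw [Matrix.det_apply']
    refine F₀.sum_mem fun σ _ => F₀.mul_mem (intCast_mem F₀ _) (F₀.prod_mem fun i _ => ?_)
    have h1 : ∀ a b : Unit ⊕ (Fin m ⊕ Fin m), (Pi.single a (1 : F) : _ → F) b ∈ F₀ := by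
      intro a b
      rw [Pi.single_apply]
      split_ifs
      · exact F₀.one_mem
      · exact F₀.zero_mem
    show QuadraticMap.polar (quadFormOdd m F) (Pi.single (σ i) 1) (Pi.single i 1) ∈ F₀
    rw [← oddQF_coe]
    rcases σ i with j | j | j
    · rw [show (Sum.inl j : Unit ⊕ (Fin m ⊕ Fin m)) = Sum.inl () from rfl, oddQF_polar_single_unit]
      exact F₀.mul_mem (by exact_mod_cast natCast_mem F₀ 2) (h1 _ _)
    · rw [oddQF_polar_single_inl]
      exact h1 _ _
    · rw [oddQF_polar_single_inr]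
      exact h1 _ _

end Cfsg.Agent.Lib.Helper8.OAsch
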