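import Cfsg.Agent.Lib.Helper21.OAsch.Defs

set_option autoImplicit false

namespace Cfsg.Agent.Lib.Helper8.OAsch

open Cfsg Cfsg.Geo Matrix Cfsg.Agent.Lib.Helper13.Asch Cfsg.Agent.Lib.Helper21.OAsch
open scoped Kronecker MatrixGroups

variable {ι : Type} [Fintype ι] [DecidableEq ι] {F : Type*} [Field F]
variable {Q : (ι → F) → F} {G : Matrix ι ι F}

/-- B0b -/
theorem iso_of_le (hO : OData Q G) {H : Subgroup (GL ι F)} (hH : H ≤ isometryGroup F Q) :
    Iso G H := by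
  intro h hh
  have hQ : ∀ u, Q ((h : Matrix ι ι F) *ᵥ u) = Q u := fun u => hH hh u u
  have hpol : ∀ u v, QuadraticMap.polar Q ((h : Matrix ι ι F) *ᵥ u) ((h : Matrix ι ι F) *ᵥ v)
      = QuadraticMap.polar Q u v := by
    intro u v
    unfold QuadraticMap.polar
    rw [← Matrix.mulVec_add, hQ, hQ, hQ]
  have key : ∀ u v : ι → F, u ⬝ᵥ (((h : Matrix ι ι F)ᵀ * G * (h : Matrix ι ι F)) *ᵥ v)
      = u ⬝ᵥ (G *ᵥ v) := by
    intro u v
    rw [← hO.polar, ← hpol, hO.polar, ← Matrix.mulVec_mulVec, ← Matrix.mulVec_mulVec,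
      Matrix.dotProduct_mulVec u, Matrix.vecMul_transpose]
  ext a b
  have := key (Pi.single a 1) (Pi.single b 1)
  simpa using this

end Cfsg.Agent.Lib.Helper8.OAsch
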