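import Cfsg.Agent.Lib.Helper21.OAsch.Defs

set_option autoImplicit false

namespace Cfsg.Agent.Lib.Helper8.OAsch

open Cfsg Cfsg.Geo Matrix Cfsg.Agent.Lib.Helper13.Asch Cfsg.Agent.Lib.Helper21.OAsch
open scoped Kronecker MatrixGroups

variable {ι : Type} [Fintype ι] [DecidableEq ι] {F : Type*} [Field F]
variable {Q : (ι → F) → F} {G : Matrix ι ι F}

/-- B0c -/
theorem omegaGL_le_isometry (Q : (ι → F) → F) : omegaGL Q ≤ isometryGroup F Q :=
  Subgroup.map_subtype_le _

end Cfsg.Agent.Lib.Helper8.OAsch
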