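import Cfsg.Agent.Lib.Helper21.OAsch.Defs
import Cfsg.Agent.Lib.Helper8.OAsch.B0b
import Cfsg.Agent.Lib.Helper8.OAsch.B0c

set_option autoImplicit false

namespace Cfsg.Agent.Lib.Helper8.OAsch

open Cfsg Cfsg.Geo Matrix Cfsg.Agent.Lib.Helper13.Asch Cfsg.Agent.Lib.Helper21.OAsch
open scoped Kronecker MatrixGroups

variable {ι : Type} [Fintype ι] [DecidableEq ι] {F : Type*} [Field F]
variable {Q : (ι → F) → F} {G : Matrix ι ι F}

theorem det_eq_one_of_mem_omegaGL {g : GL ι F} (hg : g ∈ omegaGL Q) :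
    (g : Matrix ι ι F).det = 1 := by
  obtain ⟨g', hg', rfl⟩ := hg
  have h := Abelianization.commutator_subset_ker
    ((Matrix.GeneralLinearGroup.det (n := ι) (R := F)).comp (isometryGroup F Q).subtype) hg'
  rw [MonoidHom.mem_ker] at h
  have h2 := congrArg (fun u : Fˣ => (u : F)) h
  simpa using h2

/-- B0d -/
theorem inf_scalars_eq_bot (hO : OData Q G) {H : Subgroup (GL ι F)} (hH : H ≤ omegaGL Q) :
    H ⊓ scalars ι F = ⊥ := by
  rw [eq_bot_iff]
  intro g hg
  obtain ⟨hgH, hgs⟩ := Subgroup.mem_inf.1 hg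
  obtain ⟨c, hc⟩ := (mem_scalars_iff g).1 hgs
  have hiso := iso_of_le hO (hH.trans (omegaGL_le_isometry Q)) g hgH
  have hdet := det_eq_one_of_mem_omegaGL (hH hgH)
  rw [hc] at hiso hdet
  have hG0 : G ≠ 0 := by
    intro h0
    have hu := hO.unit
    obtain ⟨k, hk⟩ := hO.odd
    have : Nonempty ι := by
      rw [← Fintype.card_pos_iff]; omega
    rw [h0, Matrix.det_zero] at hu
    exact not_isUnit_zero hu
  have hc2 : (c : F) ^ 2 = 1 := by
    have h1 : ((c : F) ^ 2 - 1) • G = 0 := by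
      have : ((c : F) • (1 : Matrix ι ι F))ᵀ * G * ((c : F) • (1 : Matrix ι ι F))
          = (c : F) ^ 2 • G := by
        simp [pow_two, smul_smul]
      rw [this] at hiso
      rw [sub_smul, hiso, one_smul, sub_self]
    rcases smul_eq_zero.1 h1 with h | h
    · exact sub_eq_zero.1 h
    · exact absurd h hG0
  have hc1 : (c : F) = 1 := by
    obtain ⟨k, hk⟩ := hO.odd
    rw [Matrix.det_smul, Matrix.det_one, mul_one, hk, pow_succ, pow_mul, hc2, one_pow,
      one_mul] at hdet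
    exact hdet
  rw [Subgroup.mem_bot]
  apply Units.ext
  rw [hc, hc1, one_smul, Units.val_one]

end Cfsg.Agent.Lib.Helper8.OAsch
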